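import Cfsg.Agent.L4S.D3
import Cfsg.Agent.Transfer.SignSemireg
import Cfsg.Agent.Transfer.Yoshida
import Cfsg.Agent.Small.Tools
import Cfsg.Agent.Inv.SylowTwo
import Cfsg.Agent.Inv.Basic

/-! The case `L₃(16)` / `L₃(4) ≀ 2` does not occur in a simple group. -/

set_option autoImplicit false

namespace Cfsg.Agent.L4S

open Subgroup

variable {G : Type*} [Group G] {A : Subgroup G} {ψ : U →* G} {α : G → B} {ν : G → Bool × Bool} {h n1 n2 : G}
  {b : Bool} {r : F → G} {g : G} {D : Subgroup G} {s : F → G}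

namespace Dd

open E Hs

/-- Thompson's transfer lemma with a cyclic quotient, extremal form -/
theorem transfer_cyc [Finite G] [IsSimpleGroup G] (hG : ¬ IsMulCommutative G) (S : Sylow 2 G) {C : Type*}
    [CommGroup C] [Finite C] [IsCyclic C] (μ : (S : Subgroup G) →* C) {y : G} (hy2 : y * y = 1) (hyS : y ∈ (S : Subgroup G))
    (hyT : μ ⟨y, hyS⟩ ≠ 1) {P : Subgroup G} (hP : IsPGroup 2 P) (hc : ∀ u ∈ P, Commute u y) :
    ∃ g : G, (∃ hm : g⁻¹ * y * g ∈ (S : Subgroup G), μ ⟨_, hm⟩ = 1) ∧ ∀ u ∈ P, g⁻¹ * u * g ∈ (S : Subgroup G) := by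
  classical
  have := Fintype.ofFinite (G ⧸ (S : Subgroup G))
  have hy : orderOf y = 2 := Inv.orderOf_two_of_mul_self hy2 fun e => hyT (by subst e; exact map_one μ)
  obtain ⟨c, hc', hcf⟩ := Transfer.exists_transfer_cocycle (S : Subgroup G) μ
  let X : Set (G ⧸ (S : Subgroup G)) := {q | ∃ g : G, (g : G ⧸ (S : Subgroup G)) = q ∧
    ∃ hm : g⁻¹ * y * g ∈ (S : Subgroup G), μ ⟨_, hm⟩ = 1}
  have hXF : ∀ q ∈ X, y • q = q := by
    rintro _ ⟨g, rfl, hg, -⟩
    rwa [MulAction.Quotient.smul_mk, eq_comm, QuotientGroup.eq, smul_eq_mul, ← mul_assoc]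
  have hord : orderOf (μ ⟨y, hyS⟩) = 2 :=
    Inv.orderOf_two_of_mul_self (by rw [← map_mul]; exact (congrArg μ (Subtype.ext hy2)).trans (map_one μ)) hyT
  have hval : ∀ q, y • q = q → c y q = if q ∈ X then 1 else μ ⟨y, hyS⟩ := by
    intro q hq
    obtain ⟨hm, h⟩ := hcf y q hq
    rw [h]
    split_ifs with hX
    · obtain ⟨g, hg, hm', h⟩ := hX
      have h1 : g⁻¹ * q.out ∈ (S : Subgroup G) := by rw [← QuotientGroup.eq, hg, QuotientGroup.out_eq']
      rw [show (⟨_, hm⟩ : (S : Subgroup G)) = ⟨_, h1⟩⁻¹ * ⟨_, hm'⟩ * ⟨_, h1⟩ from Subtype.ext (by simp [mul_assoc])]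
      simp [h]
    · refine Inv.eq_of_orderOf_two_of_isCyclic (Inv.orderOf_two_of_mul_self ?_ fun h => hX
        ⟨_, QuotientGroup.out_eq' q, by simpa using hm, by simpa using h⟩) hord
      rw [← map_mul]
      convert map_one μ
      apply Subtype.ext
      change q.out⁻¹ * y * q.out⁻¹⁻¹ * (q.out⁻¹ * y * q.out⁻¹⁻¹) = 1
      rw [conj_mul, hy2]; simp
  have h1 : ∏ q, c y q = 1 :=
    Small.hom_comm_eq_one hG ((hc'.hom ⊤ Finset.univ fun _ _ _ _ => Finset.mem_univ _).comp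
      (topEquiv (G := G)).symm.toMonoidHom) y
  have h2 : ∏ q with ¬ y • q = q, c y q = 1 := by
    refine hc'.prod_eq_one (fun q hq => ?_) fun q hq => ?_
    · simp only [Finset.mem_filter, Finset.mem_univ, true_and] at hq ⊢
      exact fun h => hq (smul_left_cancel y h)
    · simp only [Finset.mem_filter, Finset.mem_univ, true_and] at hq
      have h3 : MulAction.period y q ∣ 2 := by
        have := MulAction.period_dvd_orderOf y q
        rwa [hy] at this
      rcases (Nat.dvd_prime Nat.prime_two).1 h3 with h | h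
      · exact absurd (by simpa [h] using MulAction.pow_period_smul y q) hq
      · rw [h, pow_two, hy2, hc'.one]
  rw [← Finset.prod_filter_mul_prod_filter_not _ (fun q => y • q = q), h2, mul_one,
    Finset.prod_congr rfl (fun q hq => hval q (Finset.mem_filter.1 hq).2), Finset.prod_ite,
    Finset.prod_const_one, one_mul, Finset.prod_const, ← orderOf_dvd_iff_pow_eq_one, hord] at h1
  have hzp := Inv.isPGroup_zpowers_of_orderOf_two hy
  have h3 : ¬ 2 ∣ (Finset.univ.filter fun q : G ⧸ (S : Subgroup G) => y • q = q).card := by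
    have h4 := Transfer.Semireg.card_modEq_of_invariant (Ω := G ⧸ (S : Subgroup G)) hzp Set.univ
      (fun _ _ _ _ => trivial)
    rw [Nat.card_univ] at h4
    intro hd
    refine S.not_dvd_index ((h4.dvd_iff dvd_rfl).2 ?_)
    convert hd
    rw [← Fintype.card_subtype, ← Nat.card_eq_fintype_card]
    refine Nat.card_congr (Equiv.subtypeEquivRight fun q => ⟨fun h => h.2 y (mem_zpowers y),
      fun h => ⟨trivial, ?_⟩⟩)
    exact fun g hg => (zpowers_le.2 (show y ∈ MulAction.stabilizer G q from h)) hg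
  have h4 : ¬ 2 ∣ Nat.card X := by
    intro hd
    apply h3
    rw [← Finset.card_filter_add_card_filter_not (fun q => q ∈ X)]
    refine dvd_add ?_ h1
    rw [Nat.card_eq_fintype_card, Fintype.card_subtype] at hd
    rw [Finset.filter_filter, Finset.filter_congr (q := fun q => q ∈ X)
      fun q _ => ⟨fun h => h.2, fun h => ⟨hXF q h, h⟩⟩]
    exact hd
  obtain ⟨_, ⟨g, rfl, hg⟩, hfix⟩ := Transfer.Semireg.exists_fixed_of_invariant hP X (by
    rintro u hu _ ⟨g, rfl, hg⟩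
    refine ⟨u * g, rfl, ?_⟩
    rwa [show (u * g)⁻¹ * y * (u * g) = g⁻¹ * y * g by
      rw [mul_inv_rev, mul_assoc, mul_assoc, ← (hc u hu).left_comm]; group]) h4
  exact ⟨g, hg, fun u hu => by rw [mul_assoc, ← QuotientGroup.eq]; exact (hfix u hu).symm⟩

theorem St3.false [Finite G] [IsSimpleGroup G] {μ : F} {ρ : Hs μ →* G} {t : G}
    (H : St3 A ψ α ν h n1 n2 μ ρ t) : False := by
  have tn : t ∈ normalizer (ρ.range : Set G) :=
    have : Finite (ρ.range : Set G) := Set.finite_range ρ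
    mem_normalizer_fintype (by rintro _ ⟨u, rfl⟩; exact ⟨_, (H.tact u).symm⟩)
  obtain ⟨S, hS⟩ := (PLocal.Amb.isPGroup_sup (PLocal.Amb.isPGroup_zpowers ⟨1, by rw [pow_one, pow_two, H.tsq]⟩)
    (Hs.pg.of_surjective _ ρ.rangeRestrict_surjective) (zpowers_le.2 tn)).exists_le_sylow
  have O : Ov ρ t (S ⊓ normalizer (ρ.range : Set G)) := ⟨S.isPGroup'.to_le inf_le_left,
    fun u => ⟨hS (mem_sup_right ⟨u, rfl⟩), le_normalizer ⟨u, rfl⟩⟩, ⟨hS (mem_sup_left (mem_zpowers t)), tn⟩,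
    inf_le_right⟩
  rw [PLocal.Amb.eq_of_inf_normalizer_le S.isPGroup' inf_le_left fun n hn => ⟨hn.1, H.nor_le O hn.2⟩] at O
  let χ : (S : Subgroup G) →* Multiplicative (ZMod 4) := MonoidHom.mk'
    (fun n => Multiplicative.ofAdd (chi (sg (Φ ρ n) (e0 μ)))) fun a b => by
      obtain ⟨p, hp, ep⟩ := exists_tab _ (sg_inj (Φ ρ a))
      obtain ⟨q, hq, eq⟩ := exists_tab _ (sg_inj (Φ ρ b))
      rw [coe_mul, H.Φ_mul (O.nm a.2) (O.nm b.2), sg_comp, ep, ep, eq, chi_add p hp q hq, ofAdd_add]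
  have ht : sg (Φ ρ t) (e0 μ) = st (e0 μ) := by
    have e : ∀ w, zf (Φ ρ t) w = st w := fun w => zz_inj (H.rinj (by
      rw [← map_zz, ← H.Φ_spec tn, H.tact]; simp [stH, zz]))
    simpa [e] using (zf_smul (Φ ρ t) (e0 μ) 1).symm
  obtain ⟨g, ⟨hm, e⟩, hg⟩ := transfer_cyc (fun hc => absurd (H.inj ((map_mul ψ ⟨1, 0, 0⟩ ⟨0, 1, 0⟩).trans
      ((hc.is_comm.comm _ _).trans (map_mul ψ _ _).symm))) (by decide)) S χ H.tsq O.tm
    (fun e => absurd (show (2 : ZMod 4) = 0 from (chi_st.symm.trans (congrArg chi ht.symm)).trans e) (by decide))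
    ((IsPGroup.of_card (n := 6) U.card).of_surjective _ ψ.rangeRestrict_surjective)
    (by rintro _ ⟨u, rfl⟩; exact (mem_cen.1 H.tK _ (H.mem u)).symm)
  obtain ⟨c0, h0, hz⟩ := H.exists_z0 O
  have hi : Function.Injective ((MulAut.conj g).toMonoidHom.comp ρ) := (MulAut.conj g).injective.comp H.rinj
  have nm : cj g S ≤ normalizer (((MulAut.conj g).toMonoidHom.comp ρ).range : Set G) := fun n hn => by
    rw [MonoidHom.range_comp]; exact nor_cj.2 (O.nm (mem_cj.1 hn))
  refine H.no_d (T := cj g S) hi (S.isPGroup'.map _) (fun u => cj_mem_cj.2 (O.le u)) nm (mem_cj.2 hm)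
    (fun u => mem_cj.2 (hg _ ⟨u, rfl⟩)) h0 (fun n hn => (comm_cj'' (hz _ (mem_cj.1 hn)).symm).symm) ?_
  rw [show Φ ((MulAut.conj g).toMonoidHom.comp ρ) t = Φ ρ (g⁻¹ * t * g) from MulEquiv.ext fun u => hi (by
    rw [← Φ_spec0 hi (nm (mem_cj.2 hm))]
    show _ = g * ρ _ * g⁻¹
    rw [← H.Φ_spec (O.nm hm)]; simp [mul_assoc])]
  exact chi_zero _ e

end Dd

/-- The case `κ₁ = κ₂ = 0` does not occur in a simple group. -/
theorem St2.false_of_zero [Finite G] [IsSimpleGroup G] (H : St2 A ψ α ν h n1 n2 b r g D s 0 0) : False := by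
  obtain ⟨μ, ρ, H3⟩ := H.d_exists_st3
  exact H3.false

end Cfsg.Agent.L4S
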