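import Cfsg.Agent.L4S.D1
import Cfsg.Agent.PLocal.AmbSyl

/-! Standard subgroups `L₃(4)`, case `κ₁ = κ₂ = 0`: the normaliser of the Heisenberg group contains a Sylow
2-subgroup. -/

set_option autoImplicit false
set_option synthInstance.maxSize 4000
set_option maxRecDepth 100000

namespace Cfsg.Agent.L4S.Dd

open Subgroup E Hs

variable {G : Type*} [Group G] {A : Subgroup G} {ψ : U →* G} {α : G → B} {ν : G → Bool × Bool} {h n1 n2 : G}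
  {μ : F} {ρ : Hs μ →* G} {t : G} {T : Subgroup G}

theorem E.one_ne : (1 : E μ) ≠ 0 := by revert μ; decide

namespace Hs

/-- the automorphisms trivial modulo the centre -/
def tr (μ : F) : Subgroup (MulAut (Hs μ)) where
  carrier := {f | ∀ u, (f u).x = u.x ∧ (f u).y = u.y}
  one_mem' _ := ⟨rfl, rfl⟩
  mul_mem' {f g} hf hg u := ⟨(hf _).1.trans (hg u).1, (hf _).2.trans (hg u).2⟩
  inv_mem' {f} hf u := by simpa [eq_comm] using hf (f⁻¹ u)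

instance : (tr μ).Normal := ⟨fun f hf g u => by
  simpa using map_cong g (hf (g⁻¹ u)).1 (hf (g⁻¹ u)).2⟩

variable {f : MulAut (Hs μ)} (hz : ∀ w, zf f w = w)
include hz

theorem lin_mat (u : Hs μ) : (f u).x = u.x * (f ⟨1, 0, 0⟩).x + u.y * (f ⟨0, 1, 0⟩).x ∧
    (f u).y = u.x * (f ⟨1, 0, 0⟩).y + u.y * (f ⟨0, 1, 0⟩).y := by
  have : ∀ e, sg f e = e := fun e => by simpa [hz] using (zf_smul f e 1).symm
  simpa only [this] using map_mat f u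

theorem lin_rel : (f ⟨1, 0, 0⟩).x * (f ⟨1, 0, 0⟩).y = 0 ∧ (f ⟨0, 1, 0⟩).x * (f ⟨0, 1, 0⟩).y = 0 ∧
    (f ⟨1, 0, 0⟩).x * (f ⟨0, 1, 0⟩).y + (f ⟨1, 0, 0⟩).y * (f ⟨0, 1, 0⟩).x = 1 :=
  ⟨by simpa [hz] using q_map f ⟨1, 0, 0⟩, by simpa [hz] using q_map f ⟨0, 1, 0⟩,
    by simpa [hz, bf] using bf_map f ⟨1, 0, 0⟩ ⟨0, 1, 0⟩⟩

theorem tr_of_sing (hq : ∀ u, (u.x + (f u).x) * (u.y + (f u).y) = 0) : f ∈ tr μ := fun u => by
  obtain ⟨r1, r2, r3⟩ := lin_rel hz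
  have a1 := hq ⟨1, 0, 0⟩
  have a2 := hq ⟨0, 1, 0⟩
  have a3 := hq ⟨1, 1, 0⟩
  rw [(lin_mat hz _).1, (lin_mat hz _).2] at a3 ⊢
  generalize (f ⟨1, 0, 0⟩).x = p, (f ⟨1, 0, 0⟩).y = q, (f ⟨0, 1, 0⟩).x = p', (f ⟨0, 1, 0⟩).y = q' at *
  dsimp only at a1 a2 a3
  have := E.red (p + 1) (by grind)
  grind

theorem quad (h1 : ∀ u, (f (u * (f u)⁻¹)).x = (u * (f u)⁻¹).x ∧ (f (u * (f u)⁻¹)).y = (u * (f u)⁻¹).y) :
    (f ⟨0, 1, 0⟩).y = (f ⟨1, 0, 0⟩).x ∧ (f ⟨1, 0, 0⟩).x * (f ⟨1, 0, 0⟩).x = (f ⟨1, 0, 0⟩).x ∧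
      ((f ⟨1, 0, 0⟩).y = 0 → f ∈ tr μ) := by
  obtain ⟨r1, r2, r3⟩ := lin_rel hz
  obtain ⟨a1, -⟩ := h1 ⟨1, 0, 0⟩
  obtain ⟨-, a2⟩ := h1 ⟨0, 1, 0⟩
  rw [(lin_mat hz _).1] at a1
  rw [(lin_mat hz _).2] at a2
  have m := lin_mat hz
  simp only [mul_x, mul_y, inv_x, inv_y] at a1 a2
  generalize (f ⟨1, 0, 0⟩).x = p, (f ⟨1, 0, 0⟩).y = q, (f ⟨0, 1, 0⟩).x = p', (f ⟨0, 1, 0⟩).y = q' at *
  have e1 := E.red (p + q') (by grind)
  have e2 := E.red (p * p + p) (by grind)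
  exact ⟨by grind, by grind, fun e u => by rw [(m u).1, (m u).2]; grind⟩

theorem sing {v : Hs μ} (h1 : (f v).y = v.y) (h2 : v.x * v.y = 0) (h3 : (f ⟨0, 1, 0⟩).y = (f ⟨1, 0, 0⟩).x) :
    v.x * (f ⟨1, 0, 0⟩).y = 0 ∧ v.y * (f ⟨1, 0, 0⟩).y = 0 := by
  obtain ⟨r1, -⟩ := lin_rel hz
  rw [(lin_mat hz _).2, h3] at h1
  generalize (f ⟨1, 0, 0⟩).x = p, (f ⟨1, 0, 0⟩).y = q at *
  have e1 := E.red (v.x * q) (by grind)
  grind

end Hs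

theorem exists_aut {K : Type*} [Group K] {ρ : K →* G} (hi : Function.Injective ρ) {n : G}
    (hn : n ∈ normalizer (ρ.range : Set G)) : ∃ f : MulAut K, ∀ u, n * ρ u * n⁻¹ = ρ (f u) :=
  ⟨MulAut.congr (MonoidHom.ofInjective hi).symm (ρ.range.normalizerMonoidHom ⟨n, hn⟩), fun u => by
    simp [MonoidHom.apply_ofInjective_symm]; rfl⟩

open Classical in
/-- the action on the Heisenberg group -/
@[irreducible] noncomputable def Φ {K : Type*} [Group K] (ρ : K →* G) (n : G) : MulAut K :=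
  if h : ∃ f : MulAut K, ∀ u, n * ρ u * n⁻¹ = ρ (f u) then h.choose else 1

theorem Φ_spec0 {K : Type*} [Group K] {ρ : K →* G} (hi : Function.Injective ρ) {n : G}
    (hn : n ∈ normalizer (ρ.range : Set G)) (u : K) : n * ρ u * n⁻¹ = ρ (Φ ρ n u) := by
  have := exists_aut hi hn
  rw [Φ, dif_pos this]; exact this.choose_spec u

theorem trB : ∀ b : B, (b.on ⟨1, 0, 0⟩).x = 1 → (b.on ⟨F.w, 0, 0⟩).x = F.w → (b.on ⟨0, 1, 0⟩).y = 1 →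
    b = B.inl b.u := by decide +kernel

theorem st_inv : ∀ x : E μ, st x + x = 0 → ∀ y : E μ, st y + y = 0 → ∀ z : E μ, st z + z + st x * y = 0 →
    x = st (x * ⟨0, 1⟩) + x * ⟨0, 1⟩ ∧ y = st (y * ⟨0, 1⟩) + y * ⟨0, 1⟩ ∧ z = st (C z.a * ⟨0, 1⟩) +
      (C z.a * ⟨0, 1⟩ + x * ⟨0, 1⟩ * (y * ⟨0, 1⟩)) + st (x * ⟨0, 1⟩) * (y * ⟨0, 1⟩) := by
  revert μ; decide +kernel

/-- a 2-subgroup between `U*⟨t⟩` and `N(U*)` -/
structure Ov (ρ : Hs μ →* G) (t : G) (T : Subgroup G) : Prop where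
  pg : IsPGroup 2 T
  le : ∀ u, ρ u ∈ T
  tm : t ∈ T
  nm : T ≤ normalizer (ρ.range : Set G)

namespace St3

variable (H : St3 A ψ α ν h n1 n2 μ ρ t)
include H

theorem Φ_spec {n : G} (hn : n ∈ normalizer (ρ.range : Set G)) (u : Hs μ) : n * ρ u * n⁻¹ = ρ (Φ ρ n u) :=
  Φ_spec0 H.rinj hn u

theorem Φ_mul {n m : G} (hn : n ∈ normalizer (ρ.range : Set G)) (hm : m ∈ normalizer (ρ.range : Set G)) :
    Φ ρ (n * m) = Φ ρ n * Φ ρ m := MulEquiv.ext fun u => H.rinj (by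
  rw [← H.Φ_spec (mul_mem hn hm), cj_mul, H.Φ_spec hm, H.Φ_spec hn, MulAut.mul_apply])

theorem Φ_inv {n : G} (hn : n ∈ normalizer (ρ.range : Set G)) : Φ ρ n⁻¹ = (Φ ρ n)⁻¹ :=
  eq_inv_of_mul_eq_one_left (MulEquiv.ext fun u => H.rinj (by
    rw [← H.Φ_mul (inv_mem hn) hn, ← H.Φ_spec (mul_mem (inv_mem hn) hn)]; simp))

theorem Φ_rho (v : Hs μ) : Φ ρ (ρ v) ∈ tr μ := fun u => by
  rw [← H.rinj (show ρ (v * u * v⁻¹) = ρ (Φ ρ (ρ v) u) by rw [← H.Φ_spec (le_normalizer ⟨v, rfl⟩) u]; simp)]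
  simp only [mul_x, mul_y, inv_x, inv_y]; grind

theorem tinv : t⁻¹ = t := inv_of_sq H.tsq

/-- the involutions of `t U*` are conjugate to `t` -/
theorem inv_conj {u : Hs μ} (hu : t * ρ u * (t * ρ u) = 1) : ∃ v, t * ρ u = ρ v * t * (ρ v)⁻¹ := by
  have e : stH u * u = 1 := H.rinj (by rw [map_mul, ← H.tact, H.tinv, map_one, ← hu]; group)
  obtain ⟨e1, e2, e3⟩ := st_inv u.x (congrArg Hs.x e) u.y (congrArg Hs.y e) u.z (congrArg Hs.z e)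
  obtain ⟨v, rfl⟩ : ∃ v, u = stH v * v⁻¹ := ⟨⟨u.x * ⟨0, 1⟩, u.y * ⟨0, 1⟩, C u.z.a * (⟨0, 1⟩ : E μ)⟩, Hs.ext e1 e2 e3⟩
  exact ⟨v, by rw [map_mul, ← H.tact, H.tinv, map_inv]; simp only [← mul_assoc, H.tsq, one_mul]⟩

theorem fix_t {u : Hs μ} (c : Commute t (ρ u)) : u = ιH ⟨u.x.a, u.y.a, u.z.a⟩ := by
  have e := H.rinj ((H.tact u).symm.trans (cj_of_comm c))
  exact Hs.ext (st_fix _ (congrArg Hs.x e)) (st_fix _ (congrArg Hs.y e)) (st_fix _ (congrArg Hs.z e))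

variable (O : Ov ρ t T)
include O

theorem two_el {k : G} (hk : k ∈ T) : ∃ n, k ^ 2 ^ n = 1 := PLocal.Amb.isPGroup_iff.1 O.pg k hk

theorem cen0 {c : G} (hc : c ∈ T) (h1 : Φ ρ c ∈ tr μ) (h2 : Commute c t) : c ∈ ρ.range := by
  have e : ∀ u, c * ψ u * c⁻¹ = ψ ⟨u.x, u.y, (Φ ρ c (ιH u)).z.a⟩ := fun u => by
    have := H.fix_t (u := Φ ρ c (ιH u)) (by
      rw [← H.Φ_spec (O.nm hc), H.rpsi]
      exact (h2.symm.mul_right (mem_cen.1 H.tK _ (H.mem u))).mul_right h2.symm.inv_right)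
    rw [← H.rpsi, H.Φ_spec (O.nm hc), this, H.rpsi, (h1 _).1, (h1 _).2]; rfl
  have hm : c ∈ normalizer (A : Set G) ⊓ normalizer (ψ.range : Set G) :=
    ⟨H.nor_of_comm H.tK H.tsq H.tne h2, nor_of_act fun u => ⟨_, e u⟩⟩
  have e2 : ∀ u, (α c).on u = ⟨u.x, u.y, _⟩ := fun u => H.inj ((H.act hm u).symm.trans (e u))
  have hk := H.of_aeq hm (H.psiN _) ((trB (α c) (by rw [e2]) (by rw [e2]) (by rw [e2])).trans (H.apsi _).symm)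
  rw [← H.rpsi] at hk
  rcases H.tcen _ hk (H.two_el O (mul_mem (inv_mem (O.le _)) hc))
    ((H.rpsi _ ▸ mem_cen.1 H.tK _ (H.mem _)).symm.inv_left.mul_left h2) with e3 | e3
  · exact ⟨_, (inv_mul_eq_one.1 e3)⟩
  · have := (H.Φ_mul (O.nm (inv_mem (O.le _))) (O.nm hc)).symm.trans (congrArg (Φ ρ) e3)
    have e4 := (this ▸ mul_mem (by rw [← map_inv]; exact H.Φ_rho _) h1 : Φ ρ t ∈ tr μ) ⟨⟨0, 1⟩, 0, 0⟩
    rw [← H.rinj ((H.tact _).symm.trans (H.Φ_spec (O.nm O.tm) _))] at e4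
    exact absurd (show (0 : F) + 1 = 0 from congrArg E.a e4.1) (by decide)

theorem cen1 {c : G} (hc : c ∈ T) (h1 : Φ ρ c ∈ tr μ) (h2 : c * t * c⁻¹ * t⁻¹ ∈ ρ.range) : c ∈ ρ.range := by
  obtain ⟨u, hu⟩ := h2
  have e : c * t * c⁻¹ = t * ρ (stH u) := by
    rw [← H.tact, hu, H.tinv]; simp only [← mul_assoc, H.tsq, one_mul]; simp only [mul_assoc, H.tsq, mul_one]
  obtain ⟨v, hv⟩ := H.inv_conj (u := stH u) (by rw [← e, conj_mul, H.tsq]; simp)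
  have := H.cen0 O (mul_mem (inv_mem (O.le v)) hc) (by
    rw [H.Φ_mul (O.nm (inv_mem (O.le _))) (O.nm hc), ← map_inv]; exact mul_mem (H.Φ_rho _) h1)
    (comm_of_cj (by rw [cj_mul, e, hv]; group))
  simpa using mul_mem (show ρ v ∈ ρ.range from ⟨v, rfl⟩) this

/-- `C_T(U*/Z*) = U*` -/
theorem cen {c : G} (hc : c ∈ T) (h1 : Φ ρ c ∈ tr μ) : c ∈ ρ.range := by
  have key : ∀ k, ∀ c ∈ T, Φ ρ c ∈ tr μ → t * c * t⁻¹ = c⁻¹ → c ^ 2 ^ k = 1 → c ∈ ρ.range := by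
    intro k
    induction k with
    | zero => intro c _ _ _ e; rw [pow_zero, pow_one] at e; exact e ▸ one_mem _
    | succ k ih =>
      intro c hc h1 h2 h3
      refine H.cen1 O hc h1 ?_
      have := ih (c * c) (mul_mem hc hc) (by rw [H.Φ_mul (O.nm hc) (O.nm hc)]; exact mul_mem h1 h1)
        (by rw [← conj_mul, h2, mul_inv_rev]) (by rw [← pow_two, ← pow_mul, ← pow_succ', h3])
      rwa [mul_assoc, mul_assoc, ← mul_assoc t, ← conj_inv, h2, inv_inv]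
  have hm : c * t * c⁻¹ * t⁻¹ ∈ T := mul_mem (mul_mem (mul_mem hc O.tm) (inv_mem hc)) (inv_mem O.tm)
  obtain ⟨k, hk⟩ := H.two_el O hm
  refine H.cen1 O hc h1 (key k _ hm ?_ ?_ hk)
  · rw [mul_assoc, mul_assoc, ← mul_assoc t, H.Φ_mul (O.nm hc) (O.nm (mul_mem (mul_mem O.tm (inv_mem hc)) (inv_mem O.tm))),
      H.Φ_mul (O.nm (mul_mem O.tm (inv_mem hc))) (O.nm (inv_mem O.tm)), H.Φ_mul (O.nm O.tm) (O.nm (inv_mem hc)),
      H.Φ_inv (O.nm hc), H.Φ_inv (O.nm O.tm)]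
    exact mul_mem h1 ((inferInstance : (tr μ).Normal).conj_mem _ (inv_mem h1) _)
  · simp only [mul_inv_rev, H.tinv, inv_inv, mul_assoc, H.tsq, mul_one]

theorem exists_z0 [Finite G] : ∃ c : F, c ≠ 0 ∧ ∀ n ∈ T, Commute n (ρ (zz (C c))) := by
  let Z : Subgroup G := ⟨⟨⟨{x | ∃ w, x = ρ (zz w)}, by
    rintro _ _ ⟨v, rfl⟩ ⟨w, rfl⟩; exact ⟨v + w, by rw [zz_add, map_mul]⟩⟩, 0, by rw [zz_zero, map_one]⟩, by
    rintro _ ⟨w, rfl⟩; exact ⟨w, by rw [← map_inv]; congr 1; ext1 <;> simp⟩⟩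
  have := PLocal.Amb.inf_centralizer_ne_bot (V := Z) O.pg (O.pg.to_le (by rintro _ ⟨w, rfl⟩; exact O.le _))
    (PLocal.Amb.le_normalizer_iff_cj.2 (by
      rintro n hn _ ⟨_, ⟨w, rfl⟩, rfl⟩; exact ⟨_, (H.Φ_spec (O.nm hn) _).trans (by rw [map_zz])⟩))
    (fun e => E.one_ne (zz_inj (H.rinj ((e.le ⟨1, rfl⟩).trans (map_one ρ).symm))))
  obtain ⟨⟨_, ⟨w, rfl⟩, hw⟩, h0⟩ := ne_bot_iff_exists_ne_one.1 this
  have e : w = C w.a := congrArg Hs.z (H.fix_t (hw t O.tm))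
  refine ⟨w.a, fun e0 => h0 (Subtype.ext ?_), fun n hn => e ▸ hw n hn⟩
  show ρ (zz w) = 1
  rw [e, e0, map_zero, zz_zero, map_one]

theorem zf_id [Finite G] {n : G} (hn : n ∈ T) (h1 : ∀ e, sg (Φ ρ n) e = e) (w : E μ) : zf (Φ ρ n) w = w := by
  obtain ⟨c, h0, hc⟩ := H.exists_z0 O
  have e : zf (Φ ρ n) (C c) = C c :=
    zz_inj (H.rinj (by rw [← map_zz, ← H.Φ_spec (O.nm hn), cj_of_comm (hc n hn)]))
  have e2 : w = w * C c⁻¹ * C c := by rw [mul_assoc, ← map_mul, inv_mul_cancel₀ h0, map_one, mul_one]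
  rw [e2, zf_smul, h1, e]

theorem nor_le [Finite G] {n : G} (hn : n ∈ normalizer (T : Set G)) : n ∈ normalizer (ρ.range : Set G) := by
  obtain ⟨ρ', hρ⟩ : ∃ ρ' : Hs μ →* G, ∀ u, ρ' u = n * ρ u * n⁻¹ := ⟨(MulAut.conj n).toMonoidHom.comp ρ, fun _ => rfl⟩
  have hT : ∀ u, ρ' u ∈ T := fun u => hρ u ▸ nor_cjA hn (O.le u)
  have hi : Function.Injective ρ' := fun u v e => H.rinj (by simpa [hρ] using e)
  have hc : ∀ m ∈ T, ∃ f : MulAut (Hs μ), ∀ u, m * ρ' u * m⁻¹ = ρ' (f u) := fun m hm =>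
    ⟨Φ ρ (n⁻¹ * m * n), fun u => by
      rw [hρ, hρ, ← H.Φ_spec (O.nm (by simpa using nor_cjA (inv_mem hn) hm))]; group⟩
  have hd : ∀ u a, ρ (u * (Φ ρ (ρ' a) u)⁻¹) = ρ u * ρ' a * (ρ u)⁻¹ * (ρ' a)⁻¹ := fun u a => by
    rw [map_mul, map_inv, ← H.Φ_spec (O.nm (hT a))]; group
  have hz : ∀ m ∈ T, ∀ w, ∃ w', m * ρ' (zz w) * m⁻¹ * (ρ' (zz w))⁻¹ = ρ' (zz w') := fun m hm w => by
    obtain ⟨f, hf⟩ := hc m hm
    exact ⟨zf f w + w, by rw [hf, map_zz, ← map_inv, ← map_mul]; congr 1; ext1 <;> simp⟩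
  have s1 : ∀ w, ρ' (zz w) ∈ ρ.range := fun w => by
    choose d hd' using fun u => hz _ (O.le u) w
    simp only [← hd] at hd'
    refine H.cen O (hT _) (tr_of_sing (H.zf_id O (hT _) fun e => (of_add _ _ ?_).symm) fun u => ?_)
    · rw [← one_mul (_ + _)]
      refine iso_sg _ (fun u v => ?_) e
      rw [one_mul]
      exact (commute_iff (u := u * (Φ ρ (ρ' (zz w)) u)⁻¹) (v := v * (Φ ρ (ρ' (zz w)) v)⁻¹)).1
        ((Commute.of_map H.rinj) (by rw [hd', hd']; exact (zz_comm _ _).map _))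
    · exact zz_inj ((sq_eq (u * (Φ ρ (ρ' (zz w)) u)⁻¹)).symm.trans (H.rinj (by
        rw [map_mul, hd', ← map_mul, ← zz_add, add_self, zz_zero, map_one, map_one])))
  have fin : (∀ w, ∃ w', ρ (zz w) = ρ' (zz w')) ↔ ∀ w, ∃ w', ρ' (zz w) = ρ (zz w') := by
    constructor <;> intro hh w <;> choose φ hφ using hh
    · obtain ⟨v, rfl⟩ := Finite.surjective_of_injective (f := φ)
        (fun a b e => zz_inj (H.rinj (by rw [hφ, hφ, e]))) w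
      exact ⟨v, (hφ v).symm⟩
    · obtain ⟨v, rfl⟩ := Finite.surjective_of_injective (f := φ)
        (fun a b e => zz_inj (hi (by rw [hφ, hφ, e]))) w
      exact ⟨v, (hφ v).symm⟩
  have s2 : ∀ w, ∃ w', ρ' (zz w) = ρ (zz w') := fun w => by
    obtain ⟨u, hu⟩ := s1 w
    by_cases h0 : u.x = 0 ∧ u.y = 0
    · exact ⟨u.z, by rw [← hu, ← eq_zz h0.1 h0.2]⟩
    refine fin.1 (fun w' => ?_) w
    have k : ∀ u w, ρ u = ρ' (zz w) → ∀ v, ∃ w', ρ (zz (bf v u)) = ρ' (zz w') := fun u w e v => by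
      obtain ⟨w', hw⟩ := hz _ (O.le v) w
      exact ⟨w', by rw [← hw, ← e, ← comm_eq]; simp⟩
    obtain ⟨f, hf⟩ := hc t O.tm
    have hu' : ρ (stH u) = ρ' (zz (zf f w)) := by rw [← H.tact, hu, hf, map_zz]
    obtain ⟨v, v', e⟩ : ∃ v v', w' = bf v u + bf v' (stH u) := by
      rcases not_and_or.1 h0 with h0 | h0 <;> obtain ⟨a, b, e⟩ := st_gen _ h0
      · exact ⟨⟨0, w' * a, 0⟩, ⟨0, w' * b, 0⟩, by simp only [bf, stH]; grind⟩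
      · exact ⟨⟨w' * a, 0, 0⟩, ⟨w' * b, 0, 0⟩, by simp only [bf, stH]; grind⟩
    obtain ⟨w1, e1⟩ := k _ _ hu v
    obtain ⟨w2, e2⟩ := k _ _ hu' v'
    exact ⟨w1 + w2, by rw [e, zz_add, zz_add, map_mul, map_mul, e1, e2]⟩
  have zid : ∀ a w, zf (Φ ρ (ρ' a)) w = w := fun a w => zz_inj (H.rinj (by
    obtain ⟨w', e⟩ := fin.2 s2 w
    rw [← map_zz, ← H.Φ_spec (O.nm (hT a)), e, cj_of_comm ((zz_comm _ _).symm.map _)]))
  have fx : ∀ a v b, ρ v = ρ' b → (Φ ρ (ρ' a) v).x = v.x ∧ (Φ ρ (ρ' a) v).y = v.y := fun a v b e => by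
    obtain ⟨w, hw⟩ := s2 (bf a b)
    rw [H.rinj (show ρ (Φ ρ (ρ' a) v) = ρ (zz w * v) by
      rw [← H.Φ_spec (O.nm (hT a)), map_mul, ← hw, e, ← comm_eq]; simp)]
    simp
  have qd := fun a => quad (zid a) fun u => by
    obtain ⟨f, hf⟩ := hc _ (O.le u)
    exact fx a _ (f a * a⁻¹) (by rw [hd, hf]; simp)
  have : Finite (ρ.range : Set G) := Set.finite_range ρ
  refine mem_normalizer_fintype ?_
  rintro _ ⟨a, rfl⟩
  rw [← hρ]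
  refine H.cen O (hT a) ((qd a).2.2 ?_)
  obtain ⟨e, -, e', -, hne, he⟩ := Finset.exists_ne_map_eq_of_card_lt_of_maps_to (s := Finset.univ)
    (f := fun e : E μ => (Φ ρ (ρ' ⟨e, 0, 0⟩) ⟨1, 0, 0⟩).x) (idem_card.trans_eq (E.card (μ := μ)).symm)
    fun e _ => by simpa using (qd _).2.1
  obtain ⟨v, hv⟩ := H.cen O (hT (⟨e, 0, 0⟩ * ⟨e', 0, 0⟩)) ((qd _).2.2 (by
    rw [map_mul, H.Φ_mul (O.nm (hT _)) (O.nm (hT _)), MulAut.mul_apply, (lin_mat (zid _) _).2, (qd _).1]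
    have a1 := (lin_rel (zid ⟨e, 0, 0⟩)).1
    have a2 := (lin_rel (zid ⟨e', 0, 0⟩)).1
    grind))
  have q0 : v.x * v.y = 0 := zz_inj ((sq_eq v).symm.trans (H.rinj (by
    rw [map_mul, hv, ← map_mul, sq_eq]; simp [zz_zero])))
  obtain ⟨f, hf⟩ := hc t O.tm
  have b1 := sing (zid a) (fx a v _ hv).2 q0 (qd a).1
  have b2 := sing (zid a) (fx a (stH v) _ (by rw [← H.tact, hv, hf])).2
    (by simp only [stH]; rw [← map_mul, q0, map_zero]) (qd a).1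
  by_contra h0
  have k : ∀ x : E μ, x * _ = 0 → st x * _ = 0 → x = 0 := fun x c1 c2 => by
    by_contra hx
    obtain ⟨a, b, e⟩ := st_gen x hx
    exact h0 (by linear_combination a * c1 + b * c2 - _ * e)
  obtain ⟨w, hw⟩ := fin.2 s2 v.z
  rw [eq_zz (k _ b1.1 b2.1) (k _ b1.2 b2.2), hw] at hv
  exact hne (of_add _ _ (congrArg Hs.x (hi hv)).symm)

end St3

end Cfsg.Agent.L4S.Dd
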