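import Cfsg.Agent.L4S.D2

/-! Standard subgroups `L₃(4)`, case `κ₁ = κ₂ = 0`: no conjugate of `t` acts trivially on the centroid. -/

set_option autoImplicit false
set_option synthInstance.maxSize 4000
set_option maxRecDepth 100000

namespace Cfsg.Agent.L4S.Dd

open Subgroup E Hs

variable {G : Type*} [Group G] {A : Subgroup G} {ψ : U →* G} {α : G → B} {ν : G → Bool × Bool} {h n1 n2 : G}
  {μ : F} {ρ : Hs μ →* G} {t : G} {T : Subgroup G}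

theorem cardB : Nat.card B = 2304 := by
  rw [Nat.card_congr (β := U × Fin 3 × Fin 3 × Bool × Bool) ⟨fun b => (b.u, b.t.a, b.t.b, b.t.i, b.t.j),
    fun p => ⟨p.1, p.2.1, p.2.2.1, p.2.2.2.1, p.2.2.2.2⟩, fun _ => rfl, fun _ => rfl⟩]
  rw [Nat.card_prod, U.card]; simp

/-- the commutator of `b` and `u` -/
def cm (b : B) (u : U) : U := b.on u * u⁻¹

theorem modA : ∀ b : B, b * b = 1 → cm b ⟨1, 0, 0⟩ * cm b ⟨1, 0, 0⟩ = 1 →
    cm b ⟨1, 0, 0⟩ * cm b ⟨0, 1, 0⟩ = cm b ⟨0, 1, 0⟩ * cm b ⟨1, 0, 0⟩ →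
    cm b ⟨1, 0, 0⟩ * cm b ⟨0, F.w, 0⟩ = cm b ⟨0, F.w, 0⟩ * cm b ⟨1, 0, 0⟩ →
    cm b ⟨F.w, 0, 0⟩ * cm b ⟨0, 1, 0⟩ = cm b ⟨0, 1, 0⟩ * cm b ⟨F.w, 0, 0⟩ →
    cm b ⟨F.w, 0, 0⟩ * cm b ⟨0, F.w, 0⟩ = cm b ⟨0, F.w, 0⟩ * cm b ⟨F.w, 0, 0⟩ → b = B.inl b.u := by
  decide +kernel

/-- centralises `Z`, square in `Z` -/
def Gd (b : B) : Prop := (∀ c, b.on ⟨0, 0, c⟩ = ⟨0, 0, c⟩) ∧ ∃ c, b * b = B.inl ⟨0, 0, c⟩

theorem modB : ∀ b : B, (∀ c, b.on ⟨0, 0, c⟩ = ⟨0, 0, c⟩) → (∃ c, b * b = B.inl ⟨0, 0, c⟩) →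
    (b.t.j = false → b = B.inl b.u) ∧ (b.t.j = true → ∀ u, b.on u = u → u.x = 0 ∧ u.y = 0) := by
  decide +kernel

theorem modC {u v w : U} (h0 : ¬ (u.x = 0 ∧ u.y = 0)) (h1 : Commute v u) (h2 : Commute w u) : Commute v w := by
  have e1 := congrArg U.z h1.eq
  have e2 := congrArg U.z h2.eq
  show _ * _ = _ * _
  simp only [U.mul_def, U.mk.injEq] at e1 e2 ⊢
  refine ⟨add_comm _ _, add_comm _ _, ?_⟩
  rcases not_and_or.1 h0 with h0 | h0 <;> apply mul_left_cancel₀ h0 <;> grind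

theorem modD {a1 b1 a2 b2 : B} (g1 : Gd a1) (g2 : Gd b1) (g3 : Gd a2) (g4 : Gd b2) (g5 : Gd (a2 * b2))
    (c1 : Commute a1 a2) (c2 : Commute a1 b2) (c3 : Commute b1 a2) (c4 : Commute b1 b2) :
    Commute a1 b1 ∨ Commute a2 b2 := by
  have on : ∀ {a : B} {u}, Commute a (B.inl u) ↔ a.on u = u := fun {a u} =>
    ⟨fun c => B.inl_inj (by rw [← B.conj_inl, cj_of_comm c]), fun e => comm_of_cj (by rw [B.conj_inl, e])⟩
  have key : ∀ e, Gd e → e.t.j = false → Commute a1 e → Commute b1 e → (Commute a2 e → Commute b2 e → Commute a2 b2) →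
      Commute a1 b1 ∨ Commute a2 b2 := fun e g j d1 d2 d3 => by
    rw [(modB e g.1 g.2).1 j] at d1 d2 d3
    by_cases h0 : e.u.x = 0 ∧ e.u.y = 0
    · have : e.u = ⟨0, 0, e.u.z⟩ := U.ext h0.1 h0.2 rfl
      exact Or.inr (d3 (on.2 (this ▸ g3.1 _)) (on.2 (this ▸ g4.1 _)))
    · have k : ∀ a, Gd a → Commute a (B.inl e.u) → a = B.inl a.u := fun a g c =>
        (modB a g.1 g.2).1 (by by_contra j; exact h0 ((modB a g.1 g.2).2 (by simpa using j) _ (on.1 c)))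
      have k1 := k _ g1 d1
      have k2 := k _ g2 d2
      rw [k1] at d1 ⊢; rw [k2] at d2 ⊢
      exact Or.inl ((modC h0 (d1.of_map B.inl_inj) (d2.of_map B.inl_inj)).map _)
  cases j1 : a2.t.j
  · exact key _ g3 j1 c1 c3 fun _ c => c.symm
  cases j2 : b2.t.j
  · exact key _ g4 j2 c2 c4 fun c _ => c
  exact key _ g5 (by simp [B.mul_def, Tau.mul_def, j1, j2]) (c1.mul_right c2) (c3.mul_right c4) fun c _ => by
    simpa using (Commute.refl a2).inv_right.mul_right c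

theorem modE : ∀ v : U, v.x ≠ 0 → v * v = 1 → ⟨0, 1, 0⟩ * v ≠ v * ⟨0, 1, 0⟩ ∧ ∀ u, u * v = v * u →
    (⟨0, 1, 0⟩ * u = u * ⟨0, 1, 0⟩ ↔ ⟨0, F.w, 0⟩ * u = u * ⟨0, F.w, 0⟩) ∧
    (⟨0, 1, 0⟩ * u = u * ⟨0, 1, 0⟩ ↔ ⟨0, 1, 0⟩ * ⟨0, F.w, 0⟩ * u = u * (⟨0, 1, 0⟩ * ⟨0, F.w, 0⟩)) := by
  decide +kernel

theorem modE' : ∀ v : U, v.y ≠ 0 → v * v = 1 → ⟨1, 0, 0⟩ * v ≠ v * ⟨1, 0, 0⟩ ∧ ∀ u, u * v = v * u →
    (⟨1, 0, 0⟩ * u = u * ⟨1, 0, 0⟩ ↔ ⟨F.w, 0, 0⟩ * u = u * ⟨F.w, 0, 0⟩) ∧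
    (⟨1, 0, 0⟩ * u = u * ⟨1, 0, 0⟩ ↔ ⟨1, 0, 0⟩ * ⟨F.w, 0, 0⟩ * u = u * (⟨1, 0, 0⟩ * ⟨F.w, 0, 0⟩)) := by
  decide +kernel

theorem Hs.pg : IsPGroup 2 (Hs μ) := IsPGroup.of_card (n := 12) Hs.card

theorem Hs.lift {f : MulAut (Hs μ)} (h2 : ∀ u, f (f u) = u) (hw : sg f (C F.w) = C F.w + 1) {ε : E μ}
    (he : sg f ε = ε) (u : Hs μ) : ∃ a, f a = a ∧ a.x = ε * (u * f u).x ∧ a.y = ε * (u * f u).y := by
  have e : f (sm ε u * (f (sm ε u))⁻¹) = (sm ε u * (f (sm ε u))⁻¹)⁻¹ := by simp [h2]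
  have e1 := q_map f (sm ε u * (f (sm ε u))⁻¹)
  refine ⟨sm ε u * (f (sm ε u))⁻¹ * zz (C F.w * ((sm ε u * (f (sm ε u))⁻¹).x * (sm ε u * (f (sm ε u))⁻¹).y)), ?_,
    by simp [map_sm, he, mul_add], by simp [map_sm, he, mul_add]⟩
  rw [map_mul, map_zz, zf_smul, ← e1, e, hw]
  ext1 <;> simp only [mul_x, mul_y, mul_z, inv_x, inv_y, inv_z, zz_x, zz_y, zz_z]
  grind

namespace St3

variable (H : St3 A ψ α ν h n1 n2 μ ρ t)
include H

theorem nor_zc {m : G} (hm : m ∈ normalizer (A : Set G)) {c : F} (hc : c ≠ 0) (e : Commute m (ψ ⟨0, 0, c⟩)) :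
    m ∈ normalizer (ψ.range : Set G) := by
  have st : ∀ c, (∀ m ∈ normalizer (A : Set G), Commute m (ψ ⟨0, 0, c⟩) → m ∈ normalizer (ψ.range : Set G)) →
      ∀ m ∈ normalizer (A : Set G), Commute m (ψ ⟨0, 0, F.w * c⟩) → m ∈ normalizer (ψ.range : Set G) :=
    fun c ih m hm e => by
      have := ih (h⁻¹ * m * h) (mul_mem (mul_mem (inv_mem H.hNN.1) hm) H.hNN.1) (comm_cj' (by
        rw [H.hact]; simpa using e.symm)).symm
      simpa [mul_assoc] using mul_mem (mul_mem H.hN this) (inv_mem H.hN)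
  cases c
  exacts [absurd rfl hc, H.nor_of_z hm e, st _ (fun _ => H.nor_of_z) m hm e,
    st _ (st _ fun _ => H.nor_of_z) m hm e]

/-- the Heisenberg group does not centralise `t` -/
theorem no_cen [Finite G] {φ : Hs μ →* G} (hi : Function.Injective φ) (hc : ∀ u, Commute (φ u) t) : False := by
  obtain ⟨a, ha, e⟩ := H.syl φ.range (Hs.pg.of_surjective _ φ.rangeRestrict_surjective) (by
    rintro _ ⟨u, rfl⟩; exact H.nor_of_comm H.tK H.tsq H.tne (hc u))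
  have c : ∀ u, Commute (a * φ u * a⁻¹) t := fun u =>
    ((mem_cen.1 H.tK a ha).symm.mul_left (hc u)).mul_left (mem_cen.1 H.tK a ha).symm.inv_left
  have hm : ∀ u, ((MulAut.conj a).toMonoidHom.comp φ) u ∈ normalizer (A : Set G) ⊓ normalizer (ψ.range : Set G) :=
    fun u => ⟨H.nor_of_comm H.tK H.tsq H.tne (c u), e _ ⟨u, rfl⟩⟩
  let β := H.αh.comp (MonoidHom.codRestrict _ _ hm)
  have h1 : Nat.card β.ker ≤ 2 := by
    have : (β.ker : Set (Hs μ)).ncard ≤ ({1, t} : Set G).ncard :=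
      Set.ncard_le_ncard_of_injOn (fun u => a * φ u * a⁻¹) (fun u hu => H.tcen _ ((H.aker _ (hm u)).1 hu) (by
        obtain ⟨k, hk⟩ := Hs.pg u
        exact ⟨k, by rw [conj_pow, ← map_pow, hk]; simp⟩) (c u)) fun u _ v _ e => hi (by simpa using e)
    exact this.trans (Set.ncard_insert_le _ _ |>.trans (by simp))
  have h2 := β.ker.card_mul_index
  have h3 := β.range.card_subgroup_dvd_card
  rw [index_ker, Hs.card] at h2
  rw [cardB] at h3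
  generalize Nat.card β.ker = k, Nat.card β.range = m at *
  have := Nat.le_of_dvd (by norm_num) h3
  obtain ⟨j, hj⟩ := h3
  interval_cases k
  · omega
  · omega
  · obtain rfl : m = 2048 := by omega
    omega

theorem no_d [Finite G] {ρ' : Hs μ →* G} (hi : Function.Injective ρ') (pg : IsPGroup 2 T) (le : ∀ u, ρ' u ∈ T)
    (nm : T ≤ normalizer (ρ'.range : Set G)) (tm : t ∈ T) (hψ : ∀ u, ψ u ∈ T) {c0 : F} (h0 : c0 ≠ 0)
    (hz : ∀ n ∈ T, Commute n (ρ' (zz (C c0)))) (hχ : sg (Φ ρ' t) (e0 μ) = e0 μ) : False := by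
  have sp : ∀ {n}, n ∈ T → ∀ u, n * ρ' u * n⁻¹ = ρ' (Φ ρ' n u) := fun hn => Φ_spec0 hi (nm hn)
  have ml : ∀ {n m}, n ∈ T → m ∈ T → ∀ e, sg (Φ ρ' (n * m)) e = sg (Φ ρ' n) (sg (Φ ρ' m) e) := fun hn hm e => by
    rw [← sg_comp]; congr 2
    exact MulEquiv.ext fun u => hi (by rw [← sp (mul_mem hn hm), cj_mul, sp hm, sp hn, MulAut.mul_apply])
  have on : ∀ e, sg (Φ ρ' 1) e = e := fun e => by
    rw [show Φ ρ' 1 = 1 from MulEquiv.ext fun u => hi (by simpa using (sp (one_mem T) u).symm), sg_one]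
  obtain ⟨ζ, hζ⟩ : ∃ ζ : E μ → G, ∀ e, ζ e = ρ' (zz (e * C c0)) := ⟨_, fun _ => rfl⟩
  have un : ∀ w : E μ, w * C c0⁻¹ * C c0 = w := fun w => by
    rw [mul_assoc, ← map_mul, inv_mul_cancel₀ h0, map_one, mul_one]
  have zi : Function.Injective ζ := fun a b e => by
    have := zz_inj (hi ((hζ a).symm.trans (e.trans (hζ b))))
    rw [← un a, ← un b, mul_right_comm, this, mul_right_comm]
  have za : ∀ a b, ζ (a + b) = ζ a * ζ b := fun a b => by rw [hζ, hζ, hζ, add_mul, zz_add, map_mul]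
  have z0 : ζ 0 = 1 := by rw [hζ, zero_mul, zz_zero, map_one]
  have zc : ∀ {n}, n ∈ T → ∀ e, n * ζ e * n⁻¹ = ζ (sg (Φ ρ' n) e) := fun {n} hn e => by
    rw [hζ, hζ, sp hn, map_zz, zf_smul, zz_inj (hi (show ρ' (zz (zf (Φ ρ' n) (C c0))) = ρ' (zz (C c0)) by
      rw [← map_zz, ← sp hn, cj_of_comm (hz n hn)]))]
  have zf : ∀ {n}, n ∈ T → ∀ e, sg (Φ ρ' n) e = e ↔ Commute n (ζ e) := fun hn e =>
    ⟨fun h => comm_of_cj (by rw [zc hn, h]), fun h => zi (by rw [← zc hn, cj_of_comm h])⟩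
  have ct : ∀ u, Commute (ψ u) t := fun u => (mem_cen.1 H.tK _ (H.mem u)).symm
  have nz : ∀ w u, ρ' (zz w) ≠ ψ u * t := fun w u e => by
    rw [(ct u).eq, ← H.rpsi] at e
    obtain ⟨v, hv⟩ := H.inv_conj (u := ιH u) (by rw [← e, ← map_mul, ← zz_add, add_self, zz_zero, map_one])
    refine H.no_cen (φ := (MulAut.conj (ρ v)⁻¹).toMonoidHom.comp ρ') ((MulAut.conj _).injective.comp hi) fun x => ?_
    simpa using (comm_cj' (hv ▸ e ▸ (zz_comm w x).map ρ')).symm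
  have eo : ∀ w u, Commute (ρ' (zz w)) t → (ψ u)⁻¹ * ρ' (zz w) ∈ centralizer (A : Set G) → ρ' (zz w) = ψ u :=
    fun w u c hk => by
      rcases H.tcen _ hk (PLocal.Amb.isPGroup_iff.1 pg _ (mul_mem (inv_mem (hψ u)) (le _)))
        ((ct u).inv_left.mul_left c) with e | e
      exacts [(inv_mul_eq_one.1 e).symm, absurd (inv_mul_eq_iff_eq_mul.1 e) (nz w u)]
  have nn : ∀ c ∈ T, Commute c t → c ∈ normalizer (A : Set G) ⊓ normalizer (ψ.range : Set G) := fun c hc ct' => by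
    obtain ⟨z, hk⟩ := H.cenU (H.nor_of_comm H.tK H.tsq H.tne (hz t tm).symm) fun u => (hz _ (hψ u)).symm
    have e := eo _ _ (hz t tm).symm hk
    refine ⟨H.nor_of_comm H.tK H.tsq H.tne ct', H.nor_zc (H.nor_of_comm H.tK H.tsq H.tne ct') (c := z) ?_
      (e ▸ hz c hc)⟩
    rintro rfl
    exact h0 (congrArg E.a (zz_inj (hi (e.trans (ψ.map_one.trans ρ'.map_one.symm)))))
  have zT : ∀ e, ζ e ∈ T := fun e => hζ e ▸ le _
  have zs : ∀ e, ζ e * ζ e = 1 := fun e => by rw [← za, add_self, z0]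
  have zz' : ∀ a b, Commute (ζ a) (ζ b) := fun a b => by rw [commute_iff_eq, ← za, ← za, add_comm]
  have inU : ∀ e, sg (Φ ρ' t) e = e → ∃ u, ζ e = ψ u := fun e he => by
    have c := ((zf tm e).1 he).symm
    have hm := nn _ (zT e) c
    have k : ∀ u, ψ (cm (α (ζ e)) u) = ζ (e + sg (Φ ρ' (ψ u)) e) := fun u => by
      rw [cm, map_mul, map_inv, ← H.act hm, za, ← zc (hψ u), inv_of_sq (zs e)]; group
    have k1 : ∀ u v, cm (α (ζ e)) u * cm (α (ζ e)) v = cm (α (ζ e)) v * cm (α (ζ e)) u := fun u v =>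
      H.inj (by rw [map_mul, map_mul, k, k, (zz' _ _).eq])
    have := modA _ (by rw [← H.amul _ hm _ hm, zs, H.aone]) (H.inj (by rw [map_mul, k, zs, map_one]))
      (k1 _ _) (k1 _ _) (k1 _ _) (k1 _ _)
    rw [hζ] at *
    exact ⟨_, eo _ _ c (H.of_aeq hm (H.psiN _) (this.trans (H.apsi _).symm))⟩
  obtain ⟨pd, hd, ed⟩ := exists_tab _ (sg_inj (Φ ρ' t))
  have cA : ∀ y1 y2 : U, y1 * y1 = 1 → y2 * y2 = 1 → y1 * y2 = y2 * y1 → ∀ e v, sg (Φ ρ' t) e = e → ζ e = ψ v →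
      (∀ u, u * v = v * u → (y1 * u = u * y1 ↔ y2 * u = u * y2) ∧ (y1 * u = u * y1 ↔ y1 * y2 * u = u * (y1 * y2))) →
      y1 * v = v * y1 := fun y1 y2 a1 a2 a3 e v he hv hy => by
    obtain ⟨p, hp, ep⟩ := exists_tab _ (sg_inj (Φ ρ' (ψ y1)))
    obtain ⟨q, hq, eq⟩ := exists_tab _ (sg_inj (Φ ρ' (ψ y2)))
    have k : ∀ y e u, ζ e = ψ u → (sg (Φ ρ' (ψ y)) e = e ↔ y * u = u * y) := fun y e u hu => by
      rw [zf (hψ y), hu]; exact ⟨fun c => c.of_map H.inj, fun c => Commute.map c ψ⟩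
    have := caseA pd hd (by rw [← ed, hχ]) p hp (fun e => ?_) q hq (fun e => ?_) (fun e => ?_) (fun e' he' => ?_) e
      (by rw [← ed, he])
    · rwa [← ep, k _ _ _ hv] at this
    · rw [← ep, ← ep, ← ml (hψ _) (hψ _), ← map_mul, a1, map_one, on]
    · rw [← eq, ← eq, ← ml (hψ _) (hψ _), ← map_mul, a2, map_one, on]
    · rw [← eq, ← ep, ← ep, ← eq, ← ml (hψ _) (hψ _), ← ml (hψ _) (hψ _), ← map_mul, ← map_mul, a3]
    · obtain ⟨u, hu⟩ := inU e' (by rw [ed, he'])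
      rw [← eq, ← ep, ← ep, ← ml (hψ _) (hψ _), ← map_mul, k _ _ _ hu, k _ _ _ hu, k _ _ _ hu]
      exact hy u (H.inj (by rw [map_mul, map_mul, ← hu, ← hv, (zz' _ _).eq]))
  have inZ : ∀ e, sg (Φ ρ' t) e = e → ∃ c, ζ e = ψ ⟨0, 0, c⟩ := fun e he => by
    obtain ⟨v, hv⟩ := inU e he
    have v2 : v * v = 1 := H.inj (by rw [map_mul, ← hv, zs, map_one])
    refine ⟨v.z, hv.trans (congrArg ψ (U.ext ?_ ?_ rfl))⟩ <;> by_contra hx
    · exact (modE v hx v2).1 (cA _ _ (by decide) (by decide) (by decide) e v he hv (modE v hx v2).2)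
    · exact (modE' v hx v2).1 (cA _ _ (by decide) (by decide) (by decide) e v he hv (modE' v hx v2).2)
  rcases caseB pd hd (by rw [← ed, hχ]) with hc | ⟨i1, i2⟩
  · choose! c hc' using inZ
    refine absurd (Finset.card_le_card_of_injOn (t := Finset.univ) c (fun _ _ => Finset.mem_univ _)
      fun a ha b hb e => zi ?_) (not_le.2 hc)
    rw [hc' a (by simpa [ed] using ha), hc' b (by simpa [ed] using hb), e]
  rw [← ed] at i2
  have hχ' : sg (Φ ρ' t) (e0 μ + 1) = e0 μ + 1 := by rw [map_add, hχ, map_one]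
  have cZ : ∀ a c, Commute (ρ' a) (ψ ⟨0, 0, c⟩) := fun a c => by
    obtain ⟨c1, k1⟩ := inZ _ hχ
    obtain ⟨c2, k2⟩ := inZ _ hχ'
    have k3 : ζ 1 = ψ ⟨0, 0, c1 + c2⟩ := by
      rw [show (1 : E μ) = e0 μ + (e0 μ + 1) by grind, za, k1, k2, ← map_mul, mk_mulU]; simp
    have k : ∀ e c, ζ e = ψ ⟨0, 0, c⟩ → Commute (ρ' a) (ψ ⟨0, 0, c⟩) := fun e c h => by
      rw [← h, hζ]; exact (zz_comm _ _).symm.map _
    have k' : ∀ e c, ζ e = ψ ⟨0, 0, c⟩ → e ≠ 0 → c ≠ 0 := fun e c h h1 h2 => h1 (zi (by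
      rw [h, h2, z0]; exact ψ.map_one))
    have : c = 0 ∨ c = c1 ∨ c = c2 ∨ c = c1 + c2 := by
      have a1 := k' _ _ k1 e0_ne.1
      have a2 := k' _ _ k2 e0_ne.2
      have a3 := k' _ _ k3 E.one_ne
      clear * - a1 a2 a3; revert c c1 c2; decide
    rcases this with rfl | rfl | rfl | rfl
    exacts [k _ _ (z0.trans ψ.map_one.symm), k _ _ k1, k _ _ k2, k _ _ k3]
  have fx : ∀ a, Φ ρ' t a = a → Commute (ρ' a) t := fun a e => (comm_of_cj (by rw [sp tm, e])).symm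
  have gd : ∀ a, Φ ρ' t a = a → Gd (α (ρ' a)) := fun a e => by
    have hm := nn _ (le a) (fx a e)
    refine ⟨fun c => H.on_eq hm (cZ a c), ?_⟩
    have e1 : ρ' a * ρ' a = ζ (a.x * a.y * C c0⁻¹) := by rw [hζ, un, ← map_mul, sq_eq]
    obtain ⟨c, hc⟩ := inZ _ ((zf tm _).2 (e1 ▸ ((fx a e).mul_left (fx a e)).symm))
    exact ⟨c, by rw [← H.amul _ hm _ hm, e1, hc, H.apsi]⟩
  have cm1 : ∀ a b, Φ ρ' t a = a → Φ ρ' t b = b → (Commute (α (ρ' a)) (α (ρ' b)) ↔ bf a b = 0) := fun a b ea eb => by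
    have ha := nn _ (le a) (fx a ea)
    have hb := nn _ (le b) (fx b eb)
    refine ⟨fun c => zz_inj (hi ((eo _ 1 ?_ ?_).trans (ψ.map_one.trans ρ'.map_one.symm))), fun c => ?_⟩
    · rw [← comm_eq]; exact fx _ (by simp [ea, eb])
    · have := H.of_aeq (mul_mem ha hb) (mul_mem hb ha) (by rw [H.amul _ ha _ hb, H.amul _ hb _ ha, c.eq])
      convert nor_cjK (mul_mem hb ha).1 this using 1
      rw [← comm_eq]; simp [mul_assoc]
    · rw [commute_iff_eq, ← H.amul _ ha _ hb, ← H.amul _ hb _ ha, ((commute_iff.2 c).map ρ').eq]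
  have f2 : ∀ u, Φ ρ' t (Φ ρ' t u) = u := fun u => hi (by
    rw [← sp tm, ← sp tm, ← cj_mul, H.tsq]; simp)
  have ex : ∀ ε, ε ≠ 0 → ε * ε = ε → sg (Φ ρ' t) ε = ε → ∃ a b, Φ ρ' t a = a ∧ Φ ρ' t b = b ∧ bf a b ≠ 0 ∧
      ε * a.x = a.x ∧ ε * a.y = a.y ∧ ε * b.x = b.x ∧ ε * b.y = b.y := fun ε h1 h2 h3 => by
    by_contra hh
    suffices ∀ u v, ε * bf (u * Φ ρ' t u) (v * Φ ρ' t v) = 0 from
      h1 (by simpa [i2, ← add_assoc] using iso_sg (Φ ρ' t) this (C F.w))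
    intro u v
    obtain ⟨a, a1, a2, a3⟩ := Hs.lift f2 i2 h3 u
    obtain ⟨b, b1, b2, b3⟩ := Hs.lift f2 i2 h3 v
    by_contra h4
    exact hh ⟨a, b, a1, b1, fun e => h4 (by simp only [bf, a2, a3, b2, b3] at e ⊢; grind), by grind, by grind,
      by grind, by grind⟩
  obtain ⟨a1, b1, x1, x2, x3, x4⟩ := ex _ e0_ne.1 i1 hχ
  obtain ⟨a2, b2, y1, y2, y3, y4⟩ := ex _ e0_ne.2 (by grind) hχ'
  rcases modD (gd _ x1) (gd _ x2) (gd _ y1) (gd _ y2) (by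
      rw [← H.amul _ (nn _ (le _) (fx _ y1)) _ (nn _ (le _) (fx _ y2)), ← map_mul]; exact gd _ (by simp [y1, y2]))
    ((cm1 _ _ x1 y1).2 (by simp only [bf]; grind)) ((cm1 _ _ x1 y2).2 (by simp only [bf]; grind))
    ((cm1 _ _ x2 y1).2 (by simp only [bf]; grind)) ((cm1 _ _ x2 y2).2 (by simp only [bf]; grind)) with c | c
  exacts [x3 ((cm1 _ _ x1 x2).1 c), y3 ((cm1 _ _ y1 y2).1 c)]

end St3

end Cfsg.Agent.L4S.Dd
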